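import Cfsg.Agent.H996.L16.Use

/-!
# Eliminations of the types R, `(0)` and N, `(0,2)` (helper996, for S5916)

`elimR0 : ElimR0 Fp ta`, `elimN02 : ElimN02 Fp`. The certificates are those of helper955 (`cases2.txt`).
-/

set_option autoImplicit false
set_option maxRecDepth 20000

namespace Cfsg.Agent.H996.L16

open Cfsg.Agent.H939.L64 (KK LK brK)
open Cfsg.Agent.H955.L16

variable {Fp : LK → LK} {ta : LK →ₗ[KK] LK}

/-- the product relations of `vR` with the variables `n, n + 1, …` -/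
def prR (n : ℕ) : List (List (List ℕ)) :=
  [[mulM (mo (n + 1)) (mo (n + 3))], [mulM (mo (n + 1)) (mo (n + 2))], [mulM (mo (n + 2)) (mo (n + 5))]]

theorem prR_zero {x : ℕ → KK} {n : ℕ} (h : RelR (x (n + 1)) (x (n + 2)) (x (n + 3)) (x (n + 5))) :
    ∀ p ∈ prR n, evP x p = 0 := by
  intro p hp
  rw [prR, List.mem_cons, List.mem_cons, List.mem_singleton] at hp
  rcases hp with rfl | rfl | rfl
  · rw [evP, List.map_cons, List.map_nil, List.sum_cons, List.sum_nil, add_zero, evM_mul, evM_mo, evM_mo, zero_add, zero_add]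
    exact h.1
  · rw [evP, List.map_cons, List.map_nil, List.sum_cons, List.sum_nil, add_zero, evM_mul, evM_mo, evM_mo, zero_add, zero_add]
    exact h.2.1
  · rw [evP, List.map_cons, List.map_nil, List.sum_cons, List.sum_nil, add_zero, evM_mul, evM_mo, evM_mo, zero_add, zero_add]
    exact h.2.2

/-! ### the type R, `(0)` -/

/-- the expressions -/
def f1 : Bool → Ex
  | true => .lit (RV 0)
  | false => TE (.lit (RV 0))

/-- the equation `INV1` -/
def E1 (_ : Unit) : Ex := .add (.br (.br (f1 true) (.op 0 (.op 0 (f1 true)))) (.br (f1 false) (.op 0 (.op 0 (f1 false)))))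
  (.br (.br (f1 true) (.op 0 (.op 0 (f1 false)))) (.br (f1 false) (.op 0 (.op 0 (f1 true)))))

/-- the certificates -/
def c1 : List (ℕ × Cert Unit) := [(1, .n 2 (.e () 135) (.p 1)), (2, .e () 135)]

theorem c1_ok : seqC E1 (prR 0) [] [] c1 = true := by decide +kernel

theorem elimR0 (H : Cfsg.Agent.H939.L16.Ops Fp ta) : ElimR0 Fp ta := by
  intro s k o1 o3 r1 r2 r3 r0 hR h1 h2 _ hI
  obtain ⟨x, hx⟩ : ∃ x : ℕ → KK, x = fun n => [k, o1, o3, r1, r2, r3, r0].getD n 0 := ⟨_, rfl⟩
  have h1' : VAL Fp ta x (f1 true) = s true := by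
    rw [f1, VAL_RV, h1, hx]
    rfl
  have h2' : VAL Fp ta x (f1 false) = s false := by
    rw [f1, VAL_T, h2, ← h1']
    rfl
  have h := seq_zero H (x := x) (E := E1) (ps := prR 0) (gs := []) (fun i => by
    simp only [E1, VAL_add, VAL_br, VAL_fp, h1', h2']
    exact hI) (prR_zero (by rw [hx]; exact hR)) (fun l hl => absurd hl List.not_mem_nil) c1 [] (by simp) c1_ok
  rw [hx] at h
  exact ⟨h _ List.mem_cons_self, h _ (List.mem_cons_of_mem _ List.mem_cons_self)⟩

/-! ### the type N, `(0,2)` -/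

/-- the equation -/
def E2 (_ : Unit) : Ex := .br (.lit (RV 0)) (.op 0 (.op 0 (.lit (RV 0))))

/-- the certificates -/
def c2 : List (ℕ × Cert Unit) := [(2, .e () 6), (1, .e () 194)]

theorem c2_ok : seqC E2 (prR 0) [] [] c2 = true := by decide +kernel

theorem elimN02 (H : Cfsg.Agent.H939.L16.Ops Fp ta) : ElimN02 Fp := by
  intro k o1 o3 r1 r2 r3 r0 hR hI
  obtain ⟨x, hx⟩ : ∃ x : ℕ → KK, x = fun n => [k, o1, o3, r1, r2, r3, r0].getD n 0 := ⟨_, rfl⟩
  have h1 : VAL Fp ta x (.lit (RV 0)) = vR k o1 o3 r1 r2 r3 r0 := by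
    rw [VAL_RV, hx]
    rfl
  have h := seq_zero H (x := x) (E := E2) (ps := prR 0) (gs := []) (fun i => by
    simp only [E2, VAL_br, VAL_fp, h1]
    exact hI) (prR_zero (by rw [hx]; exact hR)) (fun l hl => absurd hl List.not_mem_nil) c2 [] (by simp) c2_ok
  rw [hx] at h
  exact ⟨h _ (List.mem_cons_of_mem _ List.mem_cons_self), h _ List.mem_cons_self⟩

end Cfsg.Agent.H996.L16
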