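import Cfsg.Agent.H996.L16.E8
import Cfsg.Agent.H996.L16.Tree
import Cfsg.Agent.H955.L16.Stmt

/-!
# Certificates for the eliminations (helper996, for S5916)

`RV n`, `NV n` : the vectors `vR`, `vN` with the variables `x n, x (n + 1), …`; `TE` : `T ta`; `Cert` : trees of case distinctions
whose leaves are coordinates of expressions (computed with the vanishing variables removed): `Cert.refute`, `seq_zero`.
-/

set_option autoImplicit false
set_option maxRecDepth 20000

namespace Cfsg.Agent.H996.L16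

open Cfsg.Agent.H939.L64 (KK LK brK)
open Cfsg.Agent.H413.L16 (er brM)
open Cfsg.Agent.H939.L16 (iz xl)
open Cfsg.Agent.H955.L16 (vR vN T)

/-! ### vectors -/

/-- the monomial `x i` -/
def mo : ℕ → List ℕ
  | 0 => [1]
  | i + 1 => 0 :: mo i

theorem evM_mo {K : Type*} [CommSemiring K] (x : ℕ → K) : ∀ i j, evM x j (mo i) = x (j + i)
  | 0, j => by rw [mo, evM, evM, pow_one, mul_one, add_zero]
  | i + 1, j => by rw [mo, evM, evM_mo x i (j + 1), pow_zero, one_mul, add_right_comm, add_assoc]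

/-- `vR` -/
def RV (n : ℕ) : Vec := [(128, mo n), (127, mo (n + 1)), (131, mo (n + 1)), (136, mo (n + 2)), (163, mo (n + 2)),
  (147, mo (n + 3)), (137, mo (n + 4)), (143, mo (n + 5)), (148, mo (n + 6))]

/-- `vN` -/
def NV (n : ℕ) : Vec := [(157, mo n), (172, mo (n + 1)), (2, mo (n + 2)), (154, mo (n + 2)), (129, mo (n + 3)),
  (156, mo (n + 3)), (2, mo (n + 4)), (167, mo (n + 4))]

variable {Fp : LK → LK} {ta : LK →ₗ[KK] LK} (x : ℕ → KK)

theorem VAL_RV (n : ℕ) : VAL Fp ta x (.lit (RV n)) =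
    vR (x n) (x (n + 1)) (x (n + 2)) (x (n + 3)) (x (n + 4)) (x (n + 5)) (x (n + 6)) := by
  rw [VAL_lit]
  unfold RV vR
  simp only [ev_cons, ev_nil, evM_mo, zero_add]
  rw [bs_er (by norm_num), bs_er (by norm_num), bs_er (by norm_num), bs_er (by norm_num), bs_er (by norm_num),
    bs_er (by norm_num), bs_er (by norm_num), bs_er (by norm_num), bs_er (by norm_num), smul_add, smul_add]
  abel

theorem VAL_NV (n : ℕ) : VAL Fp ta x (.lit (NV n)) = vN (x n) (x (n + 1)) (x (n + 2)) (x (n + 3)) (x (n + 4)) := by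
  rw [VAL_lit]
  unfold NV vN
  simp only [ev_cons, ev_nil, evM_mo, zero_add]
  rw [bs_er (by norm_num), bs_er (by norm_num), bs_er (by norm_num), bs_er (by norm_num), bs_er (by norm_num),
    bs_er (by norm_num), bs_er (by norm_num), smul_add, smul_add, smul_add]
  abel

/-- `T ta` -/
def TE (e : Ex) : Ex := .op 131 (.op 136 (.op 151 (.op 145 (.op 1 e))))

theorem VAL_xl {i : ℕ} (h : i < 240) (e : Ex) :
    VAL Fp ta x (.op (i + 10) e) = xl ⟨i, by rw [Cfsg.Agent.H413.L16.nr]; exact h⟩ 1 (VAL Fp ta x e) := by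
  show PHI2 (i + 8) (VAL Fp ta x e) = _
  unfold PHI2
  rw [dif_pos ⟨by omega, by omega⟩]
  rfl

theorem VAL_T (e : Ex) : VAL Fp ta x (TE e) = T ta (VAL Fp ta x e) := by
  unfold TE T iz
  rw [show (131 : ℕ) = 121 + 10 from rfl, VAL_xl x (by norm_num), show (136 : ℕ) = 126 + 10 from rfl, VAL_xl x (by norm_num),
    show (151 : ℕ) = 141 + 10 from rfl, VAL_xl x (by norm_num), show (145 : ℕ) = 135 + 10 from rfl, VAL_xl x (by norm_num),
    VAL_ta]

/-! ### vanishing variables -/

/-- remove the vanishing terms -/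
def zapV (Z : List ℕ) : Vec → Vec
  | [] => []
  | p :: l => if mz Z 0 p.2 = true then zapV Z l else p :: zapV Z l

/-- remove the vanishing terms of the literals -/
def Ex.zap (Z : List ℕ) : Ex → Ex
  | .lit l => .lit (zapV Z l)
  | .add a c => .add (a.zap Z) (c.zap Z)
  | .br a c => .br (a.zap Z) (c.zap Z)
  | .op i a => .op i (a.zap Z)

variable {x}

theorem ev_zapV {Z : List ℕ} (hZ : ∀ v ∈ Z, x v = 0) : ∀ l : Vec, ev x bs (zapV Z l) = ev x bs l
  | [] => rfl
  | p :: l => by
    rw [zapV]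
    split_ifs with h
    · rw [ev_zapV hZ l, ev_cons, evM_zero x hZ p.2 0 h, zero_smul, zero_add]
    · rw [ev_cons, ev_zapV hZ l, ev_cons]

theorem VAL_zap {Z : List ℕ} (hZ : ∀ v ∈ Z, x v = 0) : ∀ e : Ex, VAL Fp ta x (e.zap Z) = VAL Fp ta x e
  | .lit l => by rw [Ex.zap, VAL_lit, VAL_lit, ev_zapV hZ]
  | .add a c => by rw [Ex.zap, VAL_add, VAL_add, VAL_zap hZ a, VAL_zap hZ c]
  | .br a c => by rw [Ex.zap, VAL_br, VAL_br, VAL_zap hZ a, VAL_zap hZ c]
  | .op i a => by
    rw [Ex.zap]
    show PHI Fp ta i (VAL Fp ta x (a.zap Z)) = PHI Fp ta i (VAL Fp ta x a)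
    rw [VAL_zap hZ a]

/-! ### coordinates without the full vector -/

/-- the coordinate `u`, not normalised -/
def Ex.cof (u : ℕ) : Ex → List (List ℕ)
  | .add a c => a.cof u ++ c.cof u
  | .br a c => co u (br0 bt (a.run bt tb ks) (c.run bt tb ks))
  | .lit l => co u l
  | .op i a => co u (op0 (tb i) (ks i) (a.run bt tb ks))

/-- normalisation of a polynomial -/
def nrP (p : List (List ℕ)) : List (List ℕ) := (nrm (trV (asV p))).map Prod.snd

theorem evP_append (p q : List (List ℕ)) : evP x (p ++ q) = evP x p + evP x q := by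
  unfold evP
  rw [List.map_append, List.sum_append]

theorem evP_snd : ∀ l : Vec, evP x (l.map Prod.snd) = ev x (fun _ => (1 : KK)) l
  | [] => rfl
  | p :: l => by
    rw [ev_cons, ← evP_snd l, smul_eq_mul, mul_one]
    unfold evP
    rw [List.map_cons, List.map_cons, List.sum_cons]

theorem evP_nrP (p : List (List ℕ)) : evP x (nrP p) = evP x p := by
  unfold nrP
  rw [evP_snd, ev_nrm, ev_trV, ev_asV]

theorem cof_eq (H : Cfsg.Agent.H939.L16.Ops Fp ta) {u : ℕ} (hu : u < 248) : ∀ e : Ex,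
    phi u (VAL Fp ta x e) = evP x (e.cof u)
  | .add a c => by rw [Ex.cof, evP_append, ← cof_eq H hu a, ← cof_eq H hu c, VAL_add, map_add]
  | .br a c => by
    rw [Ex.cof, ← co_eq x (phi u) (phi_bs hu), ev_br0 x brM bt bt_spec, ← val_eq H, ← val_eq H]
    rfl
  | .lit l => by rw [Ex.cof, ← co_eq x (phi u) (phi_bs hu), VAL_lit]
  | .op i a => by
    rw [Ex.cof, ← co_eq x (phi u) (phi_bs hu), ev_op0 x (tb i) (ks i) (PHI Fp ta i) ((ops H).zero i) ((ops H).add i)
      ((ops H).smul i), ← val_eq H]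
    rfl

/-! ### certificates -/

/-- trees: `e i u` the coordinate `u` of the equation `i`, `p i` the relation `i`, `g i` the group `i`, `n v s t` : `s` if
`x v = 0`, `t` if `x v ≠ 0` -/
inductive Cert (ι : Type) : Type
  | e (i : ι) (u : ℕ) : Cert ι
  | p (i : ℕ) : Cert ι
  | g (i : ℕ) : Cert ι
  | n (v : ℕ) (s t : Cert ι) : Cert ι

variable {ι : Type} (E : ι → Ex)

/-- the test: equations `E`, relations `ps`, groups `gs` -/
def Cert.chk (ps : List (List (List ℕ))) (gs : List (List ℕ)) : List ℕ → List ℕ → Cert ι → Bool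
  | Z, N, .e i u => Nat.blt u 248 && one1 N (nrP (((E i).zap Z).cof u))
  | Z, N, .p i => one1 N (filt Z (ps.getD i []))
  | Z, _, .g i => (match gs[i]? with
    | none => false
    | some l => allZ Z l)
  | Z, N, .n v s t => s.chk ps gs (v :: Z) N && t.chk ps gs Z (v :: N)

variable {E} (H : Cfsg.Agent.H939.L16.Ops Fp ta)

include H in
/-- **the certificate** -/
theorem Cert.refute {ps : List (List (List ℕ))} {gs : List (List ℕ)} (hE : ∀ i, VAL Fp ta x (E i) = 0)
    (hp : ∀ p ∈ ps, evP x p = 0) (hg : ∀ l ∈ gs, ∃ v ∈ l, x v ≠ 0) : ∀ (t : Cert ι) (Z N : List ℕ), (∀ v ∈ Z, x v = 0) →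
    (∀ v ∈ N, x v ≠ 0) → t.chk E ps gs Z N = true → False
  | .e i u, Z, N, hZ, hN, h => by
    rw [Cert.chk, Bool.and_eq_true] at h
    refine ne_of_one1 x hN h.2 ?_
    rw [evP_nrP, ← cof_eq H (ltB h.1), VAL_zap hZ, hE i, map_zero]
  | .p i, Z, N, hZ, hN, h => by
    rw [Cert.chk] at h
    refine ne_of_one1 x hN h ?_
    rw [evP_filt x hZ]
    by_cases hi : i < ps.length
    · rw [List.getD_eq_getElem _ _ hi]
      exact hp _ (List.getElem_mem hi)
    · rw [List.getD_eq_default _ _ (not_lt.1 hi)]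
      rfl
  | .g i, Z, N, hZ, hN, h => by
    rw [Cert.chk] at h
    split at h
    · exact absurd h (by decide)
    · rename_i l hl
      obtain ⟨v, hv, h1⟩ := hg l (List.mem_of_getElem? hl)
      exact h1 (zero_of_allZ x hZ h v hv)
  | .n v s t, Z, N, hZ, hN, h => by
    rw [Cert.chk, Bool.and_eq_true] at h
    by_cases h0 : x v = 0
    · exact Cert.refute hE hp hg s (v :: Z) N (fun w hw => by
        rcases List.mem_cons.1 hw with rfl | hw
        · exact h0
        · exact hZ w hw) hN h.1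
    · exact Cert.refute hE hp hg t Z (v :: N) hZ (fun w hw => by
        rcases List.mem_cons.1 hw with rfl | hw
        · exact h0
        · exact hN w hw) h.2

variable (E) in
/-- a sequence of certificates: the variables `v` vanish one after the other -/
def seqC (ps : List (List (List ℕ))) (gs : List (List ℕ)) : List ℕ → List (ℕ × Cert ι) → Bool
  | _, [] => true
  | Z, c :: l => c.2.chk E ps gs Z [c.1] && seqC ps gs (c.1 :: Z) l

include H in
/-- **a sequence of certificates** -/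
theorem seq_zero {ps : List (List (List ℕ))} {gs : List (List ℕ)} (hE : ∀ i, VAL Fp ta x (E i) = 0)
    (hp : ∀ p ∈ ps, evP x p = 0) (hg : ∀ l ∈ gs, ∃ v ∈ l, x v ≠ 0) : ∀ (L : List (ℕ × Cert ι)) (Z : List ℕ),
    (∀ v ∈ Z, x v = 0) → seqC E ps gs Z L = true → ∀ c ∈ L, x c.1 = 0
  | [], _, _, _, c, hc => absurd hc List.not_mem_nil
  | c :: L, Z, hZ, h, d, hd => by
    rw [seqC, Bool.and_eq_true] at h
    have h0 : x c.1 = 0 := by
      by_contra h1
      refine Cert.refute H hE hp hg c.2 Z [c.1] hZ (fun v hv => ?_) h.1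
      rw [List.mem_singleton.1 hv]
      exact h1
    rcases List.mem_cons.1 hd with rfl | hd
    · exact h0
    · exact seq_zero hE hp hg L (c.1 :: Z) (fun v hv => by
        rcases List.mem_cons.1 hv with rfl | hv
        · exact h0
        · exact hZ v hv) h.2 d hd

end Cfsg.Agent.H996.L16
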